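import Cfsg.Agent.H424.EPX.TF4
import Cfsg.Agent.H470.EPO.OwnPan
import Cfsg.Agent.H419.EP.Big

/-!
# Own characteristic, socle `²F₄(q)`: the `T`-form (helper424, for S3499)

* `own_TF4_T` : `EPT A Γ`, `HasSoc A L`, `L ≅ ²F₄(q)`, `HasFilt 2 Q`: impossible;
* `own_TF4_big` : the same in the situation `Big`.
-/

set_option autoImplicit false
set_option linter.unusedSectionVars false

namespace Cfsg.Agent.H424.EPX

open Cfsg.Agent.H470.EPO Cfsg.Agent.H284.EPT Cfsg.Agent.H419.EP Cfsg.Agent.KFacts.RgdFilt Cfsg.Agent.H209.EPX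

/-- **`T`-form** -/
theorem own_TF4_T {Q : Type*} [Group Q] [Finite Q] [IsSimpleGroup Q] (hQ : HasFilt 2 Q) {A₀ : Subgroup Q}
    {Γ : Subgroup (MulAut Q)} (h : H284.EPT A₀ Γ) {L : Type} [Group L] [Finite L] [IsSimpleGroup L]
    (hL : Cfsg.Lie.Iso2F4 L) (hab : ∃ a b : L, a * b ≠ b * a) (hs : HasSoc A₀ L) : False := by
  obtain ⟨N, hN, ⟨e⟩⟩ := exists_socN hab hs
  have hfin : Finite (H284.EPT.GG Γ) := finite_GG h
  have hE := eps_of_ept h hN (L := L) inferInstance hab e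
  have hn : (jj Γ).range.Normal := by
    refine ⟨?_⟩
    rintro _ ⟨q, rfl⟩ g
    exact ⟨_, (jj_conj Γ g q).symm⟩
  have hNj : N.map (jj Γ) ≤ (jj Γ).range := by
    rintro _ ⟨x, _, rfl⟩
    exact ⟨x, rfl⟩
  obtain ⟨a, ha, b, hb, hab'⟩ := hN.nab
  exact own_TF4' hE hL hQ ⟨a, b, hab'⟩ (jj_inj h) hn hNj

open scoped MatrixGroups in
/-- **in the situation `Big`** -/
theorem own_TF4_big {Q : Type} [Group Q] [Finite Q] {A : Subgroup Q} {Γ : Subgroup (MulAut Q)} {ι : Type} [Fintype ι]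
    [DecidableEq ι] {F : Type} [Field F] [Fintype F] {S P : Subgroup (GL ι F)} (b : Big A Γ S P) (h2 : ringChar F = 2)
    {L : Type} [Group L] (e : socle P ≃* L) (hL : Cfsg.Lie.Iso2F4 L) : False := by
  have := b.simple
  have := b.core.simple
  have : IsSimpleGroup L := e.symm.isSimpleGroup
  have : Finite (socle P) := inferInstance
  have : Finite L := Finite.of_equiv _ e.toEquiv
  have hab : ∃ x y : L, x * y ≠ y * x := by
    have h1 := b.core.nonabelian
    by_contra hcon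
    push Not at hcon
    refine h1 ⟨⟨fun x y => ?_⟩⟩
    apply e.injective
    rw [map_mul, map_mul]
    exact hcon _ _
  exact own_TF4_T (h2 ▸ b.filt) b.ept hL hab (b.hasSoc' e)

end Cfsg.Agent.H424.EPX
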